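import Cfsg.Agent.Lib.ToddCox.RUC0.P0
set_option autoImplicit false
set_option maxRecDepth 100000
namespace Cfsg.Agent.Lib.ToddCox.RUC0
theorem covered : Covered Eo inv W isH 59245 158283 := (Covered.trans (Covered.trans (Covered.trans (Covered.trans (Covered.trans c0 (Covered.trans c1 c2)) (Covered.trans c3 (Covered.trans c4 c5))) (Covered.trans (Covered.trans c6 (Covered.trans c7 c8)) (Covered.trans c9 (Covered.trans c10 c11)))) (Covered.trans (Covered.trans (Covered.trans c12 (Covered.trans c13 c14)) (Covered.trans c15 (Covered.trans c16 c17))) (Covered.trans (Covered.trans c18 (Covered.trans c19 c20)) (Covered.trans (Covered.trans c21 c22) (Covered.trans c23 c24))))) (Covered.trans (Covered.trans (Covered.trans (Covered.trans c25 (Covered.trans c26 c27)) (Covered.trans c28 (Covered.trans c29 c30))) (Covered.trans (Covered.trans c31 (Covered.trans c32 c33)) (Covered.trans c34 (Covered.trans c35 c36)))) (Covered.trans (Covered.trans (Covered.trans c37 (Covered.trans c38 c39)) (Covered.trans c40 (Covered.trans c41 c42))) (Covered.trans (Covered.trans c43 (Covered.trans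 c44 c45)) (Covered.trans (Covered.trans c46 c47) (Covered.trans c48 c49))))))
theorem links : LinksOK Eo cF (2 * nEv) N ys 0 8120 := (LinksOK.trans (LinksOK.trans (LinksOK.trans k0 k1) (LinksOK.trans k2 k3)) (LinksOK.trans (LinksOK.trans k4 k5) (LinksOK.trans k6 (LinksOK.trans k7 k8))))
theorem defs : ∀ c, c < nDef → chkDef Eo inv c = true := defs_of_bits 59245 13 8 (by norm_num) (by
  intro j hj
  interval_cases j
  · exact d0
  · exact d1
  · exact d2
  · exact d3
  · exact d4
  · exact d5
  · exact d6
  · exact d7
  )
theorem words : ∀ j, j < nW → wordsOK W (relR Rb inv) inv sp j = true := allBelow_spec (by norm_num [nW]) wordsGood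
end Cfsg.Agent.Lib.ToddCox.RUC0
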